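import Mathlib
import Cfsg.Agent.Lib.Helper77.NF3.Defs

set_option autoImplicit false

/-! NF3 project (S0689), package [CARD]: a regular linear group has `|V| - 1` elements and
`|V|` is a power of `p`. -/

namespace Cfsg.Agent.Lib.Helper26.NF3

open Cfsg.Agent.Lib.Helper77.NF3

universe u

theorem pkgCard : PkgCard.{u} := by
  intro p _ V _ _ _ H hreg hnt
  classical
  obtain ⟨v0, hv0⟩ := exists_ne (0 : V)
  have hne : ∀ h : H, (h : V ≃ₗ[ZMod p] V) v0 ≠ 0 := fun h hh =>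
    hv0 ((h : V ≃ₗ[ZMod p] V).map_eq_zero_iff.mp hh)
  have hbij : Function.Bijective
      (fun h : H => (⟨(h : V ≃ₗ[ZMod p] V) v0, hne h⟩ : {w : V // w ≠ 0})) := by
    constructor
    · intro h1 h2 h12
      have h12' : (h1 : V ≃ₗ[ZMod p] V) v0 = (h2 : V ≃ₗ[ZMod p] V) v0 :=
        congrArg Subtype.val h12
      obtain ⟨h0, -, huniq⟩ := hreg v0 ((h2 : V ≃ₗ[ZMod p] V) v0) hv0 (hne h2)
      rw [huniq h1 h12', huniq h2 rfl]
    · rintro ⟨w, hw⟩
      obtain ⟨h0, hh0, -⟩ := hreg v0 w hv0 hw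
      exact ⟨h0, Subtype.ext hh0⟩
  refine ⟨?_, ?_⟩
  · rw [Nat.card_congr (Equiv.ofBijective _ hbij), ← Finite.card_option,
      Nat.card_congr (Equiv.optionSubtypeNe (0 : V))]
  · have : Module.Finite (ZMod p) V := Module.Finite.of_finite
    refine ⟨Module.finrank (ZMod p) V, ?_⟩
    rw [Module.natCard_eq_pow_finrank (K := ZMod p) (V := V), Nat.card_zmod]

end Cfsg.Agent.Lib.Helper26.NF3
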