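import Mathlib
import Cfsg.Agent.Lib.Helper77.NF3.Defs

set_option autoImplicit false

/-! NF3 project (S0689), package [DIM]: with the field of [FLD], `|V| = q ^ d`, `d ≥ 2`, and
`C_H(N)` is cyclic of order dividing `q - 1`. -/

namespace Cfsg.Agent.Lib.Helper26.NF3

open Cfsg.Agent.Lib.Helper77.NF3

universe u

theorem pkgDim : PkgDim.{u} := by
  intro p _ V _ _ _ H hreg N hNna F _ _ _ hlin hscal
  classical
  have : Module.Finite F V := Module.Finite.of_finite
  have hfinGL : Finite (V ≃ₗ[ZMod p] V) :=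
    Finite.of_injective (fun h : V ≃ₗ[ZMod p] V => (h : V → V)) DFunLike.coe_injective
  -- `V` is nontrivial
  have hVnt : Nontrivial V := by
    by_contra hV
    rw [not_nontrivial_iff_subsingleton] at hV
    apply hNna
    refine ⟨⟨fun a b => ?_⟩⟩
    have hsub : ∀ x y : V ≃ₗ[ZMod p] V, x = y := fun x y =>
      LinearEquiv.ext fun v => Subsingleton.elim _ _
    exact Subtype.ext (Subtype.ext (hsub _ _))
  obtain ⟨v0, hv0⟩ := exists_ne (0 : V)
  have hne : ∀ h : V ≃ₗ[ZMod p] V, h v0 ≠ 0 := fun h hh =>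
    hv0 (h.map_eq_zero_iff.mp hh)
  -- an element of `H` is determined by its value at `v0`
  have hdet : ∀ h1 h2 : H, (h1 : V ≃ₗ[ZMod p] V) v0 = (h2 : V ≃ₗ[ZMod p] V) v0 → h1 = h2 := by
    intro h1 h2 h12
    obtain ⟨h0, -, huniq⟩ := hreg v0 ((h2 : V ≃ₗ[ZMod p] V) v0) hv0 (hne _)
    rw [huniq h1 h12, huniq h2 rfl]
  have hcancel : ∀ a b : F, a • v0 = b • v0 → a = b := fun a b hab =>
    smul_left_injective F hv0 hab
  refine ⟨Nat.card F, Module.finrank F V, ?_, Module.natCard_eq_pow_finrank, ?_, ?_⟩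
  · -- the dimension is at least two
    by_contra hd
    have hd' : Module.finrank F V = 0 ∨ Module.finrank F V = 1 := by omega
    rcases hd' with hd0 | hd1
    · have := Module.finrank_zero_iff.mp hd0
      exact hv0 (Subsingleton.elim _ _)
    · obtain ⟨v1, hv1, hspan⟩ := finrank_eq_one_iff'.mp hd1
      apply hNna
      refine ⟨⟨fun n1 n2 => ?_⟩⟩
      obtain ⟨a1, ha1⟩ := hspan (((n1 : H) : V ≃ₗ[ZMod p] V) v1)
      obtain ⟨a2, ha2⟩ := hspan (((n2 : H) : V ≃ₗ[ZMod p] V) v1)
      have hne1 : ∀ h : V ≃ₗ[ZMod p] V, h v1 ≠ 0 := fun h hh =>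
        hv1 (h.map_eq_zero_iff.mp hh)
      have key : (((n1 * n2 : N) : H) : V ≃ₗ[ZMod p] V) v1
          = (((n2 * n1 : N) : H) : V ≃ₗ[ZMod p] V) v1 := by
        have e1 : (((n1 * n2 : N) : H) : V ≃ₗ[ZMod p] V) v1
            = ((n1 : H) : V ≃ₗ[ZMod p] V) (((n2 : H) : V ≃ₗ[ZMod p] V) v1) := rfl
        have e2 : (((n2 * n1 : N) : H) : V ≃ₗ[ZMod p] V) v1
            = ((n2 : H) : V ≃ₗ[ZMod p] V) (((n1 : H) : V ≃ₗ[ZMod p] V) v1) := rfl
        rw [e1, e2, ← ha1, ← ha2, hlin _ n1.2, hlin _ n2.2, ← ha1, ← ha2, smul_smul, smul_smul,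
          mul_comm]
      obtain ⟨h0, -, huniq⟩ := hreg v1 ((((n2 * n1 : N) : H) : V ≃ₗ[ZMod p] V) v1) hv1 (hne1 _)
      have := (huniq ((n1 * n2 : N) : H) key).trans (huniq ((n2 * n1 : N) : H) rfl).symm
      exact Subtype.ext this
  all_goals
    -- the scalar by which an element of the centralizer acts
    have hsc : ∀ c : Subgroup.centralizer (N : Set H), ∃ a : F, ∀ v : V,
        (((c : H)) : V ≃ₗ[ZMod p] V) v = a • v := fun c => hscal c.1 c.2
    choose sc hscs using hsc
    let ψ : Subgroup.centralizer (N : Set H) →* F :=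
      { toFun := sc
        map_one' := by
          apply hcancel
          rw [← hscs 1, one_smul]
          rfl
        map_mul' := by
          intro c c'
          apply hcancel
          rw [← hscs (c * c'), mul_smul, ← hscs c', ← hscs c]
          rfl }
    have hψ : Function.Injective ψ := by
      intro c c' hcc
      apply Subtype.ext
      apply hdet
      change sc c = sc c' at hcc
      rw [hscs c, hscs c', hcc]
  · have hφ : Function.Injective ψ.toHomUnits := by
      intro c c' hcc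
      apply hψ
      have h := congrArg (fun u : Fˣ => (u : F)) hcc
      simpa only [MonoidHom.coe_toHomUnits] using h
    have := Subgroup.card_dvd_of_injective _ hφ
    rwa [Nat.card_units] at this
  · exact isCyclic_of_injective_ringHom ψ hψ

end Cfsg.Agent.Lib.Helper26.NF3
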